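import Cfsg.Agent.Lib.Schur.Pullback
import Cfsg.Agent.Lib.Schur.Stem
import Cfsg.Agent.Lib.SchurCert.Upper
import Cfsg.Agent.Lib.Schur.Transport

/-!
# Non-cyclic multipliers through an explicit universal cover

If `π : C → G` is a stem extension of a perfect group and all finite stem extensions of `C` are
isomorphisms, then the kernel of any finite stem extension of `G` is a homomorphic image of the kernel
of `π`.
-/

set_option autoImplicit false

namespace Cfsg.Agent.Lib.Schur.Univ.Basic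

open Cfsg Subgroup Cfsg.Agent.Lib.Schur.Pullback Cfsg.Agent.Lib.Schur.Stem
open Cfsg.Agent.Lib.SchurCert.Upper

universe u v

section

variable {G : Type v} [Group G] {C : Type} [Group C] [Finite C] {Γ : Type u} [Group Γ] [Finite Γ]

/-- The commutator subgroup of the pullback, with its map to the cover. -/
noncomputable def tauP (π : C →* G) (σ : Γ →* G) : ↥(commutator ↥(P σ π)) →* C :=
  (sndP σ π).comp (commutator ↥(P σ π)).subtype

theorem tauP_surj (hG : commutator G = ⊤) {π : C →* G} (hπ : IsStemExtension π) {σ : Γ →* G}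
    (hσ : IsStemExtension σ) : Function.Surjective (tauP π σ) := by
  have hC : commutator C = ⊤ := commutator_eq_top_of_stem hπ hG
  intro c
  have h1 := commutator_le_map_of_surj (sndP σ π) (sndP_surj hσ.1)
  have h2 : c ∈ commutator C := by rw [hC]; exact mem_top _
  obtain ⟨x, hx, rfl⟩ := h1 h2
  exact ⟨⟨x, hx⟩, rfl⟩

theorem central_of_mem {π : C →* G} (hπ : IsStemExtension π) {σ : Γ →* G} (hσ : IsStemExtension σ)
    {x : ↥(P σ π)} (hx : σ (x : Γ × C).1 = 1) : x ∈ center ↥(P σ π) := by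
  have h1 : (x : Γ × C).1 ∈ σ.ker := hx
  have h2 : (x : Γ × C).2 ∈ π.ker := by
    rw [MonoidHom.mem_ker]
    have h3 := x.2
    rw [mem_P] at h3
    rw [← h3, hx]
  rw [mem_center_iff]
  intro y
  apply Subtype.ext
  apply Prod.ext
  · exact mem_center_iff.1 (hσ.2.1 h1) (y : Γ × C).1
  · exact mem_center_iff.1 (hπ.2.1 h2) (y : Γ × C).2

theorem tauP_perfect (hG : commutator G = ⊤) {π : C →* G} (hπ : IsStemExtension π) {σ : Γ →* G}
    (hσ : IsStemExtension σ) : commutator ↥(commutator ↥(P σ π)) = ⊤ := by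
  -- the map of the pullback to `G` has central kernel
  let ρ : ↥(P σ π) →* G := σ.comp (fstP σ π)
  have hρ : Function.Surjective ρ := hσ.1.comp (fstP_surj hπ.1)
  have hker : ρ.ker ≤ center ↥(P σ π) := fun x hx => central_of_mem hπ hσ hx
  set D := commutator ↥(P σ π) with hD
  have hsup : D ⊔ ρ.ker = ⊤ := by
    rw [eq_top_iff]
    intro x _
    have h1 : commutator G ≤ D.map ρ := commutator_le_map_of_surj ρ hρ
    have h2 : ρ x ∈ commutator G := by rw [hG]; exact mem_top _
    obtain ⟨y, hy, hyx⟩ := h1 h2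
    have h3 : y⁻¹ * x ∈ ρ.ker := by
      rw [MonoidHom.mem_ker, map_mul, map_inv, hyx, inv_mul_cancel]
    have : x = y * (y⁻¹ * x) := by group
    rw [this]
    exact mul_mem (mem_sup_left hy) (mem_sup_right h3)
  have h4 : D ≤ ⁅D, D⁆ := commutator_le_of_sup_central D ρ.ker hker hsup
  rw [eq_top_iff]
  rintro ⟨x, hx⟩ _
  have h5 := h4 hx
  have h6 : ⁅D, D⁆ = (commutator ↥D).map D.subtype := by
    rw [_root_.commutator_def, Subgroup.map_commutator, ← MonoidHom.range_eq_map, Subgroup.range_subtype]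
  rw [h6] at h5
  obtain ⟨y, hy, hyx⟩ := h5
  have : y = ⟨x, hx⟩ := Subtype.ext hyx
  rwa [← this]

theorem tauP_stem (hG : commutator G = ⊤) {π : C →* G} (hπ : IsStemExtension π) {σ : Γ →* G}
    (hσ : IsStemExtension σ) : IsStemExtension (tauP π σ) := by
  refine ⟨tauP_surj hG hπ hσ, ?_, ?_⟩
  · rintro ⟨x, hx⟩ hk
    have h1 : (x : Γ × C).2 = 1 := hk
    have h2 : σ (x : Γ × C).1 = 1 := by
      have h3 := x.2
      rw [mem_P, h1, map_one] at h3
      exact h3
    have h4 := central_of_mem hπ hσ h2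
    rw [mem_center_iff]
    intro y
    apply Subtype.ext
    exact mem_center_iff.1 h4 (y : ↥(P σ π))
  · intro x _
    rw [tauP_perfect hG hπ hσ]
    exact mem_top x

/-- **The universal property.**  The kernel of a stem extension of `G` is an image of the kernel of `π`. -/
theorem exists_surj_ker (hG : commutator G = ⊤) {π : C →* G} (hπ : IsStemExtension π)
    (hb : StemBound.{u} C 1) {σ : Γ →* G} (hσ : IsStemExtension σ) :
    ∃ f : π.ker →* σ.ker, Function.Surjective f := by
  have hτ := tauP_stem hG hπ hσ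
  have h1 : Nat.card (tauP π σ).ker ∣ 1 := hb _ (tauP π σ) hτ
  have h2 : Nat.card (tauP π σ).ker = 1 := Nat.dvd_one.1 h1
  have hinj : Function.Injective (tauP π σ) := by
    rw [injective_iff_map_eq_one]
    intro a ha
    have h3 : a ∈ (tauP π σ).ker := ha
    have hs : Subsingleton (tauP π σ).ker := (Nat.card_eq_one_iff_unique.1 h2).1
    have h4 : (⟨a, h3⟩ : (tauP π σ).ker) = 1 := Subsingleton.elim _ _
    exact congrArg Subtype.val h4
  let e : ↥(commutator ↥(P σ π)) ≃* C := MulEquiv.ofBijective (tauP π σ) ⟨hinj, hτ.1⟩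
  -- the map from the cover to the extension
  let φ : C →* Γ := (fstP σ π).comp ((commutator ↥(P σ π)).subtype.comp e.symm.toMonoidHom)
  have hφ1 : ∀ c, σ (φ c) = π c := by
    intro c
    have h3 : ((e.symm c : ↥(commutator ↥(P σ π))) : ↥(P σ π)).1 ∈ P σ π :=
      ((e.symm c : ↥(commutator ↥(P σ π))) : ↥(P σ π)).2
    rw [mem_P] at h3
    have h4 : tauP π σ (e.symm c) = c := e.apply_symm_apply c
    have h5 : (((e.symm c : ↥(commutator ↥(P σ π))) : ↥(P σ π)) : Γ × C).2 = c := h4
    rw [h5] at h3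
    exact h3
  have hΓ : commutator Γ = ⊤ := commutator_eq_top_of_stem hσ hG
  have hφs : Function.Surjective φ := by
    intro g
    have h3 := commutator_le_map_of_surj (fstP σ π) (fstP_surj hπ.1)
    have h4 : g ∈ commutator Γ := by rw [hΓ]; exact mem_top _
    obtain ⟨x, hx, hxg⟩ := h3 h4
    refine ⟨tauP π σ ⟨x, hx⟩, ?_⟩
    show fstP σ π ((e.symm (e ⟨x, hx⟩) : ↥(commutator ↥(P σ π))) : ↥(P σ π)) = g
    rw [e.symm_apply_apply]
    exact hxg
  refine ⟨(φ.comp π.ker.subtype).codRestrict σ.ker ?_, ?_⟩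
  · rintro ⟨c, hc⟩
    rw [MonoidHom.mem_ker]
    show σ (φ c) = 1
    rw [hφ1]
    exact hc
  · rintro ⟨k, hk⟩
    obtain ⟨c, rfl⟩ := hφs k
    have hc : c ∈ π.ker := by
      rw [MonoidHom.mem_ker, ← hφ1]
      exact hk
    exact ⟨⟨c, hc⟩, rfl⟩

end

/-- The constructor of a multiplier. -/
theorem hasSchurMultiplier_of {G : Type u} [Group G] {H : Type} [Group H] (e : G ≃* H)
    (hH : commutator H = ⊤) {A : Type} [CommGroup A] {C : Type} [Group C] [Finite C] (π : C →* H)
    (hπ : IsStemExtension π) (hA : Nonempty (π.ker ≃* A)) (hb : StemBound.{u} C 1) :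
    HasSchurMultiplier G A := by
  classical
  obtain ⟨hAe⟩ := hA
  let f : ULift.{u} C ≃* C := MulEquiv.ulift
  have : Finite (ULift.{u} C) := Finite.of_equiv C f.symm.toEquiv
  refine ⟨⟨ULift.{u} C, inferInstance, inferInstance,
    Cfsg.Agent.Lib.Schur.Transport.tr f e.symm π,
    Cfsg.Agent.Lib.Schur.Transport.isStem_tr f e.symm hπ, ?_⟩, ?_⟩
  · refine ⟨MulEquiv.trans ?_ hAe⟩
    refine MulEquiv.ofBijective
      (MonoidHom.codRestrict ((f.toMonoidHom).comp (Cfsg.Agent.Lib.Schur.Transport.tr f e.symm π).ker.subtype) π.ker ?_) ⟨?_, ?_⟩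
    · rintro ⟨x, hx⟩
      exact (Cfsg.Agent.Lib.Schur.Transport.mem_ker_tr f e.symm π x).1 hx
    · rintro ⟨x, hx⟩ ⟨y, hy⟩ h
      apply Subtype.ext
      apply f.injective
      exact congrArg Subtype.val h
    · rintro ⟨c, hc⟩
      refine ⟨⟨f.symm c, (Cfsg.Agent.Lib.Schur.Transport.mem_ker_tr f e.symm π _).2 (by simpa using hc)⟩, ?_⟩
      apply Subtype.ext
      simp
  · intro Γ _ _ σ hσ
    have hs := Cfsg.Agent.Lib.Schur.Transport.isStem_tr (MulEquiv.refl Γ) e hσ
    obtain ⟨g, hg⟩ := exists_surj_ker hH hπ hb hs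
    -- the kernels agree
    have hker : (Cfsg.Agent.Lib.Schur.Transport.tr (MulEquiv.refl Γ) e σ).ker = σ.ker := by
      ext x
      rw [Cfsg.Agent.Lib.Schur.Transport.mem_ker_tr]
      rfl
    refine ⟨((MulEquiv.subgroupCongr hker).toMonoidHom.comp g).comp hAe.symm.toMonoidHom, ?_⟩
    exact (MulEquiv.subgroupCongr hker).surjective.comp (hg.comp hAe.symm.surjective)

end Cfsg.Agent.Lib.Schur.Univ.Basic
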