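import Cfsg.Agent.Lib.Schur.CoverH

/-!
# Stem extensions with kernel a Klein four group, from codes

A variant of `CoverH.exists_stem_of_cert`: the kernel is generated by two central involutions which
are commutators.
-/

set_option autoImplicit false

namespace Cfsg.Agent.Lib.Schur.Univ.Klein

open Cfsg Subgroup
open Cfsg.Agent.Lib.PermComp.Core Cfsg.Agent.Lib.Schur.CoverCert Cfsg.Agent.Lib.Schur.CoverH
open scoped commutatorElement

universe u

theorem zmod2_cases (a : ZMod 2) : a = 0 ∨ a = 1 := by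
  revert a
  decide

theorem pow_val_add {Y : Type*} [Group Y] {z : Y} (hz : z ^ 2 = 1) (a b : ZMod 2) :
    z ^ (a + b).val = z ^ a.val * z ^ b.val := by
  have h11 : (1 + 1 : ZMod 2) = 0 := by decide
  have hv : (1 : ZMod 2).val = 1 := by decide
  rcases zmod2_cases a with rfl | rfl <;> rcases zmod2_cases b with rfl | rfl
  · simp
  · simp
  · simp
  · rw [h11, hv, ZMod.val_zero, pow_zero, pow_one, ← pow_two, hz]

/-- The kernel from two commuting involutions. -/
noncomputable def kleinHom {Y : Type*} [Group Y] (K : Subgroup Y) (z₁ z₂ : Y) (h₁ : z₁ ∈ K) (h₂ : z₂ ∈ K)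
    (hc : Commute z₁ z₂) (hz₁ : z₁ ^ 2 = 1) (hz₂ : z₂ ^ 2 = 1) :
    Multiplicative (ZMod 2 × ZMod 2) →* K where
  toFun x := ⟨z₁ ^ (Multiplicative.toAdd x).1.val * z₂ ^ (Multiplicative.toAdd x).2.val,
    K.mul_mem (K.pow_mem h₁ _) (K.pow_mem h₂ _)⟩
  map_one' := by
    apply Subtype.ext
    simp
  map_mul' x y := by
    apply Subtype.ext
    simp only [toAdd_mul, Prod.fst_add, Prod.snd_add, Subgroup.coe_mul]
    rw [pow_val_add hz₁, pow_val_add hz₂]
    have h3 : Commute (z₁ ^ (Multiplicative.toAdd y).1.val) (z₂ ^ (Multiplicative.toAdd x).2.val) :=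
      (hc.pow_left _).pow_right _
    calc _ = z₁ ^ (Multiplicative.toAdd x).1.val * (z₁ ^ (Multiplicative.toAdd y).1.val *
          z₂ ^ (Multiplicative.toAdd x).2.val) * z₂ ^ (Multiplicative.toAdd y).2.val := by group
      _ = z₁ ^ (Multiplicative.toAdd x).1.val * (z₂ ^ (Multiplicative.toAdd x).2.val *
          z₁ ^ (Multiplicative.toAdd y).1.val) * z₂ ^ (Multiplicative.toAdd y).2.val := by rw [h3.eq]
      _ = _ := by group

theorem kleinHom_inj {Y : Type*} [Group Y] (K : Subgroup Y) (z₁ z₂ : Y) (h₁ : z₁ ∈ K) (h₂ : z₂ ∈ K)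
    (hc : Commute z₁ z₂) (hz₁ : z₁ ^ 2 = 1) (hz₂ : z₂ ^ 2 = 1) (hn₁ : z₁ ≠ 1) (hn₂ : z₂ ≠ 1) (hn : z₁ ≠ z₂) :
    Function.Injective (kleinHom K z₁ z₂ h₁ h₂ hc hz₁ hz₂) := by
  rw [injective_iff_map_eq_one]
  intro x hx
  have h3 : z₁ ^ (Multiplicative.toAdd x).1.val * z₂ ^ (Multiplicative.toAdd x).2.val = 1 :=
    congrArg Subtype.val hx
  have hv : (1 : ZMod 2).val = 1 := by decide
  have hx' : Multiplicative.toAdd x = 0 := by
    rcases zmod2_cases (Multiplicative.toAdd x).1 with h5 | h5 <;>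
      rcases zmod2_cases (Multiplicative.toAdd x).2 with h6 | h6 <;> rw [h5, h6] at h3
    · exact Prod.ext h5 h6
    · exfalso
      apply hn₂
      simpa [hv] using h3
    · exfalso
      apply hn₁
      simpa [hv] using h3
    · exfalso
      apply hn
      rw [hv, pow_one, pow_one] at h3
      have h7 : z₂ * z₂ = 1 := by rw [← pow_two, hz₂]
      calc z₁ = z₁ * z₂ * z₂ := by rw [mul_assoc, h7, mul_one]
        _ = z₂ := by rw [h3, one_mul]
  exact Multiplicative.toAdd.injective hx'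

/-- The abstract statement: a homomorphism onto a subgroup `G`, of four times the order, and two
distinct central involutions in the kernel and in the commutator subgroup. -/
theorem stem_of_range {Γ β : Type*} [Group Γ] [Finite Γ]
    (π : Γ →* Equiv.Perm β) (G : Subgroup (Equiv.Perm β)) (hr : π.range = G)
    (hcard : Nat.card Γ = 4 * Nat.card G)
    (z₁ z₂ : Γ) (hπ₁ : π z₁ = 1) (hπ₂ : π z₂ = 1) (hc₁ : z₁ ∈ center Γ) (hc₂ : z₂ ∈ center Γ)
    (hz₁ : z₁ ^ 2 = 1) (hz₂ : z₂ ^ 2 = 1) (hn₁ : z₁ ≠ 1) (hn₂ : z₂ ≠ 1) (hn : z₁ ≠ z₂)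
    (hm₁ : z₁ ∈ commutator Γ) (hm₂ : z₂ ∈ commutator Γ) :
    ∃ σ : Γ →* G, IsStemExtension σ ∧ Nonempty (σ.ker ≃* Multiplicative (ZMod 2 × ZMod 2)) := by
  have hmem : ∀ x, π x ∈ G := fun x => by rw [← hr]; exact ⟨x, rfl⟩
  let σ : Γ →* G := π.codRestrict _ hmem
  have hsurj : Function.Surjective σ := by
    rintro ⟨y, hy⟩
    rw [← hr] at hy
    obtain ⟨x, rfl⟩ := hy
    exact ⟨x, rfl⟩
  have hk₁ : z₁ ∈ σ.ker := by
    rw [MonoidHom.mem_ker]
    exact Subtype.ext hπ₁
  have hk₂ : z₂ ∈ σ.ker := by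
    rw [MonoidHom.mem_ker]
    exact Subtype.ext hπ₂
  have hcardker : Nat.card σ.ker = 4 := by
    have h1 := Subgroup.card_mul_index σ.ker
    have h2 : σ.ker.index = Nat.card G := by
      rw [Subgroup.index_ker, MonoidHom.range_eq_top.2 hsurj]
      exact Nat.card_congr Subgroup.topEquiv.toEquiv
    have : Finite G := Finite.of_surjective σ hsurj
    rw [h2, hcard] at h1
    exact Nat.eq_of_mul_eq_mul_right Nat.card_pos h1
  have hcomm : Commute z₁ z₂ := (mem_center_iff.1 hc₁ z₂).symm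
  let f := kleinHom σ.ker z₁ z₂ hk₁ hk₂ hcomm hz₁ hz₂
  have hfi : Function.Injective f := kleinHom_inj σ.ker z₁ z₂ hk₁ hk₂ hcomm hz₁ hz₂ hn₁ hn₂ hn
  have hcard4 : Nat.card (Multiplicative (ZMod 2 × ZMod 2)) = 4 := by
    rw [Nat.card_eq_fintype_card]
    decide
  have hfs : Function.Surjective f := by
    have : Finite σ.ker := inferInstance
    exact (Function.Injective.bijective_of_nat_card_le hfi (by rw [hcardker, hcard4])).2
  have hker : ∀ x ∈ σ.ker, x ∈ center Γ ⊓ commutator Γ := by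
    intro x hx
    obtain ⟨y, hy⟩ := hfs ⟨x, hx⟩
    have h3 : z₁ ^ (Multiplicative.toAdd y).1.val * z₂ ^ (Multiplicative.toAdd y).2.val = x :=
      congrArg Subtype.val hy
    rw [← h3]
    exact ⟨mul_mem (pow_mem hc₁ _) (pow_mem hc₂ _), mul_mem (pow_mem hm₁ _) (pow_mem hm₂ _)⟩
  exact ⟨σ, ⟨hsurj, fun x hx => (hker x hx).1, fun x hx => (hker x hx).2⟩,
    ⟨(MulEquiv.ofBijective f ⟨hfi, hfs⟩).symm⟩⟩

section Codes

variable {N m w mask L maskL idc w' mask' : ℕ} {β : Type u} [Finite β]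

/-- The data of a central involution in the kernel which is a commutator. -/
noncomputable def zOK (N m w mask L maskL idc : ℕ) (gens : List (ℕ × ℕ × ℕ)) (ls : List Lev)
    (z : ℕ × ℕ × ℕ × ℕ × ℕ × ℕ × ℕ) : Bool :=
  let zc := z.1
  let zd := z.2.1
  let uc := z.2.2.1
  let ud := z.2.2.2.1
  let vc := z.2.2.2.2.1
  let vd := z.2.2.2.2.2.1
  let p := z.2.2.2.2.2.2
  ifB (goodPair (m + N) w mask zc zd) <|
  ifB (goodPair (m + N) w mask uc ud) <|
  ifB (goodPair (m + N) w mask vc vd) <|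
  ifB (sift (m + N) w mask L maskL idc ls zc) <|
  ifB (sift (m + N) w mask L maskL idc ls uc) <|
  ifB (sift (m + N) w mask L maskL idc ls vc) <|
  ifB (allL (fun b => Nat.beq (app w mask zc b) b) (List.range m)) <|
  ifB (allL (fun t => Nat.beq (comp (m + N) w mask zc t.1) (comp (m + N) w mask t.1 zc)) gens) <|
  ifB (Nat.beq (powC (m + N) w mask idc zc 2) idc) <|
  ifB (Nat.ble (Nat.succ p) (m + N)) <|
  ifB (Bool.not (Nat.beq (app w mask zc p) p)) <|
  Nat.beq (comp (m + N) w mask uc vc) (comp (m + N) w mask zc (comp (m + N) w mask vc uc))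

/-- The main theorem. -/
theorem exists_stem_of_cert (e' : β ≃ Fin m)
    {gens : List (ℕ × ℕ × ℕ)} {T T' : List ℕ} (hT : gens.map (·.1) = T) (hT' : gens.map (·.2.2) = T')
    {prog : List (ℕ × ℕ × ℕ)} {ls : List Lev} {z₁ z₂ : ℕ × ℕ × ℕ × ℕ × ℕ × ℕ × ℕ}
    (hgens : allL (CoverH.blockOK N m w mask w' mask') gens = true)
    (hc : checkAll (m + N) w mask L maskL idc T prog ls = true)
    (hord : orderC ls = 4 * Nat.card (H w' mask' e' T'))
    (hz₁ : zOK N m w mask L maskL idc gens ls z₁ = true)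
    (hz₂ : zOK N m w mask L maskL idc gens ls z₂ = true)
    (hz12 : Nat.beq (app w mask z₁.1 z₂.2.2.2.2.2.2) z₂.2.2.2.2.2.2 = true) :
    ∃ σ : H w mask (EF (N := N) e') T →* H w' mask' e' T',
      IsStemExtension σ ∧ Nonempty (σ.ker ≃* Multiplicative (ZMod 2 × ZMod 2)) := by
  classical
  subst hT hT'
  let E : Fin N ⊕ β ≃ Fin (m + N) := EF e'
  set G : Subgroup (Equiv.Perm β) := H w' mask' e' (gens.map (·.2.2)) with hG
  -- generators
  have hgen : ∀ t ∈ gens, goodPair (m + N) w mask t.1 t.2.1 = true ∧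
      allL (fun i => Nat.ble m (app w mask t.1 (m + i))) (List.range N) = true ∧
      allL (fun b => Nat.beq (app w mask t.1 b) (app w' mask' t.2.2 b))
        (List.range m) = true := by
    intro t ht
    have := (allL_eq_true _ _).1 hgens t ht
    simpa only [CoverH.blockOK, ifB_eq_true] using this
  have hTe : ∀ c ∈ gens.map (·.1), ∃ g, Rep w mask E c g := by
    intro c hc
    obtain ⟨t, ht, rfl⟩ := List.mem_map.1 hc
    exact exists_rep _ (hgen t ht).1
  obtain ⟨hm, hid, -, hsem, heq, hcard⟩ := main_of_checkAll (e := E) hTe hc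
  set H0 : Subgroup (Equiv.Perm (Fin N ⊕ β)) := H w mask E (gens.map (·.1)) with hH0
  have hsift : ∀ {c : ℕ} {g : Equiv.Perm (Fin N ⊕ β)}, Rep w mask E c g →
      sift (m + N) w mask L maskL idc ls c = true → g ∈ H0 := by
    intro c g hg hs
    rw [heq]
    exact sift_sound_of_sem hm hid ls hsem c g hg hs
  -- the parts are preserved
  have hle : H0 ≤ (Equiv.Perm.sumCongrHom (Fin N) β).range := by
    apply (Subgroup.closure_le _).2
    rintro g ⟨c, hc, hg⟩
    obtain ⟨t, ht, rfl⟩ := List.mem_map.1 hc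
    exact mapsTo_of_rep e' hg (hgen t ht).2.1
  let π : H0 →* Equiv.Perm β := proj.comp (Subgroup.inclusion hle)
  have hπrep : ∀ (t : ℕ × ℕ × ℕ), t ∈ gens → ∀ (x : H0),
      Rep w mask E t.1 (x : Equiv.Perm (Fin N ⊕ β)) →
      Rep w' mask' e' t.2.2 (π x) := by
    intro t ht x hx
    exact rep_proj e' (x := Subgroup.inclusion hle x) hx (hgen t ht).2.2
  have hgenH : ∀ (t : ℕ × ℕ × ℕ), t ∈ gens → ∃ x : H0,
      Rep w mask E t.1 (x : Equiv.Perm (Fin N ⊕ β)) := by
    intro t ht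
    obtain ⟨g, hg⟩ := exists_rep E (hgen t ht).1
    exact ⟨⟨g, H_of_rep (List.mem_map.2 ⟨t, ht, rfl⟩) hg⟩, hg⟩
  have hr : π.range = G := by
    apply le_antisymm
    · rintro _ ⟨x, rfl⟩
      have hclos : H0 ≤ ((G.comap π).map H0.subtype) := by
        apply (Subgroup.closure_le _).2
        rintro g ⟨c, hc, hg⟩
        obtain ⟨t, ht, rfl⟩ := List.mem_map.1 hc
        have hgH : g ∈ H0 := Subgroup.subset_closure ⟨_, List.mem_map.2 ⟨t, ht, rfl⟩, hg⟩
        refine ⟨⟨g, hgH⟩, ?_, rfl⟩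
        exact H_of_rep (List.mem_map.2 ⟨t, ht, rfl⟩) (hπrep t ht ⟨g, hgH⟩ hg)
      obtain ⟨y, hy, hyx⟩ := hclos x.2
      have : y = x := Subtype.ext hyx
      rw [← this]
      exact hy
    · apply (Subgroup.closure_le _).2
      rintro g ⟨c, hc, hg⟩
      obtain ⟨t, ht, rfl⟩ := List.mem_map.1 hc
      obtain ⟨x, hx⟩ := hgenH t ht
      exact ⟨x, (hπrep t ht x hx).unique hg⟩
  -- the central elements
  have hcentral : ∀ z : ℕ × ℕ × ℕ × ℕ × ℕ × ℕ × ℕ, zOK N m w mask L maskL idc gens ls z = true →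
      ∃ x : H0, Rep w mask E z.1 (x : Equiv.Perm (Fin N ⊕ β)) ∧ π x = 1 ∧ x ∈ center H0 ∧ x ^ 2 = 1 ∧ x ≠ 1 ∧
        x ∈ commutator H0 := by
    rintro ⟨zc, zd, uc, ud, vc, vd, p⟩ hz
    simp only [zOK, ifB_eq_true] at hz
    obtain ⟨hzg, hug, hvg, hzs, hus, hvs, hzb, hzcomm, hzk, hp, hzp, huv⟩ := hz
    obtain ⟨gz, hgz⟩ := exists_rep E hzg
    obtain ⟨gu, hgu⟩ := exists_rep E hug
    obtain ⟨gv, hgv⟩ := exists_rep E hvg
    have hgzH := hsift hgz hzs
    have hguH := hsift hgu hus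
    have hgvH := hsift hgv hvs
    let z : H0 := ⟨gz, hgzH⟩
    let u : H0 := ⟨gu, hguH⟩
    let v : H0 := ⟨gv, hgvH⟩
    have hπz : π z = 1 := by
      ext b
      have h1 := proj_apply (Subgroup.inclusion hle z) b
      have h2 : (π z) b = (proj (Subgroup.inclusion hle z)) b := rfl
      have h3 := hgz (Sum.inr b)
      have h4 := (allL_eq_true _ _).1 hzb (e' b).1 (List.mem_range.2 (e' b).2)
      have h5 : app w mask zc (e' b).1 = (e' b).1 := Nat.eq_of_beq_eq_true h4
      have h6 : ((E (Sum.inr b) : Fin (m + N)) : ℕ) = (e' b).1 := EF_inr e' b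
      rw [h6, h5] at h3
      have h7 : (gz (Sum.inr b)) = Sum.inr b := by
        apply (E).injective
        apply Fin.ext
        rw [← h3, h6]
      have h8 : (Subgroup.inclusion hle z : Equiv.Perm (Fin N ⊕ β)) = gz := rfl
      rw [h8, h7] at h1
      have h9 := Sum.inr.inj h1
      rw [h2, ← h9]
      rfl
    have hzcent : z ∈ center H0 := by
      rw [mem_center_iff]
      have hcl : H0 ≤ centralizer ({gz} : Set (Equiv.Perm (Fin N ⊕ β))) := by
        apply (Subgroup.closure_le _).2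
        rintro g ⟨c, hc, hg⟩
        obtain ⟨t, ht, rfl⟩ := List.mem_map.1 hc
        rw [SetLike.mem_coe, mem_centralizer_singleton_iff]
        have h1 := (allL_eq_true _ _).1 hzcomm t ht
        have h2 := Nat.eq_of_beq_eq_true h1
        have h3 := hgz.comp hm hg
        rw [h2] at h3
        exact (hg.comp hm hgz).unique h3
      intro y
      apply Subtype.ext
      exact mem_centralizer_singleton_iff.1 (hcl y.2)
    have hz2 : z ^ 2 = 1 := by
      apply Subtype.ext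
      have h1 := Rep_pow hm hid hgz 2
      exact h1.eq_one hid (Nat.eq_of_beq_eq_true hzk)
    have hzne : z ≠ 1 := by
      intro h
      have h1 : gz = 1 := congrArg Subtype.val h
      have hp' : p < m + N := Nat.le_of_ble_eq_true hp
      have h2 := hgz ((E).symm ⟨p, hp'⟩)
      rw [h1] at h2
      simp at h2
      have h3 : Nat.beq (app w mask zc p) p = true := by
        rw [h2]; exact Nat.beq_refl p
      rw [h3] at hzp
      exact absurd hzp (by decide)
    have hzz : z ∈ commutator H0 := by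
      have h1 : gu * gv = gz * (gv * gu) := by
        have h2 := hgu.comp hm hgv
        rw [Nat.eq_of_beq_eq_true huv] at h2
        exact h2.unique (hgz.comp hm (hgv.comp hm hgu))
      have h3 : ⁅u, v⁆ = z := by
        apply Subtype.ext
        show gu * gv * gu⁻¹ * gv⁻¹ = gz
        rw [h1]
        group
      rw [← h3]
      exact Subgroup.commutator_mem_commutator (mem_top _) (mem_top _)
    exact ⟨z, hgz, hπz, hzcent, hz2, hzne, hzz⟩
  obtain ⟨x₁, hr₁, hπ₁, hc₁, hs₁, hn₁, hm₁⟩ := hcentral z₁ hz₁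
  obtain ⟨x₂, hr₂, hπ₂, hc₂, hs₂, hn₂, hm₂⟩ := hcentral z₂ hz₂
  have hn : x₁ ≠ x₂ := by
    intro h
    simp only [zOK, ifB_eq_true] at hz₂
    obtain ⟨-, -, -, -, -, -, -, -, -, hp, hzp, -⟩ := hz₂
    have hp' : z₂.2.2.2.2.2.2 < m + N := Nat.le_of_ble_eq_true hp
    have h1 := hr₁ ((E).symm ⟨_, hp'⟩)
    have h2 := hr₂ ((E).symm ⟨_, hp'⟩)
    rw [← h] at h2
    simp only [Equiv.apply_symm_apply] at h1 h2
    have h3 : app w mask z₁.1 z₂.2.2.2.2.2.2 = z₂.2.2.2.2.2.2 := Nat.eq_of_beq_eq_true hz12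
    rw [h3] at h1
    rw [← h1] at h2
    rw [h2] at hzp
    rw [Nat.beq_refl] at hzp
    exact absurd hzp (by decide)
  have hfin : Finite H0 := inferInstance
  exact stem_of_range π G hr (by rw [hcard, hord]) x₁ x₂ hπ₁ hπ₂ hc₁ hc₂ hs₁ hs₂ hn₁ hn₂ hn hm₁ hm₂

end Codes

end Cfsg.Agent.Lib.Schur.Univ.Klein
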