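import Cfsg.Agent.Lib.Schur.Univ.Klein

/-!
# Covers with a Klein four kernel, by a sign argument

A group `C` of permutations of `Fin N ⊕ β` acting on `β` as `H'`.  To bound the kernel of the action on
`β` without a chain for `C` we use that `C` acts compatibly (through a map `b`) on the points of a group `H₂`
which is known to act faithfully on `β`, so that the elements of the kernel act on each fibre of `b`, and
that `C` preserves a relation on `Fin N` which separates a point of a fibre from the other points in it.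
-/

set_option autoImplicit false

namespace Cfsg.Agent.Lib.Schur.Univ.Signs

open Cfsg Subgroup
open Cfsg.Agent.Lib.PermComp.Core Cfsg.Agent.Lib.Schur.CoverCert Cfsg.Agent.Lib.Schur.CoverH
open Cfsg.Agent.Lib.Schur.Univ.Klein
open scoped commutatorElement

universe u

/-- Induction on a closure without inverses, in a finite group. -/
theorem closure_ind {G : Type*} [Group G] [Finite G] {S : Set G} {P : G → Prop}
    (h1 : P 1) (hm : ∀ a b, P a → P b → P (a * b)) (hS : ∀ s ∈ S, P s) :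
    ∀ x ∈ closure S, P x := by
  intro x hx
  refine Subgroup.closure_induction (p := fun y _ => P y) (fun s hs => hS s hs) h1
    (fun a b _ _ ha hb => hm a b ha hb) ?_ hx
  intro a _ ha
  have hpow : ∀ k : ℕ, P (a ^ k) := by
    intro k
    induction k with
    | zero => simpa using h1
    | succ k ih =>
      rw [pow_succ]
      exact hm _ _ ih ha
  have h2 : a⁻¹ = a ^ (orderOf a - 1) := by
    apply inv_eq_of_mul_eq_one_left
    rw [← pow_succ, Nat.sub_add_cancel (orderOf_pos a), pow_orderOf_eq_one]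
  rw [h2]
  exact hpow _

/-- The abstract statement. -/
theorem stem_of_range {Γ β : Type*} [Group Γ] [Finite Γ]
    (π : Γ →* Equiv.Perm β) (G : Subgroup (Equiv.Perm β)) (hr : π.range = G)
    (z₁ z₂ : Γ) (hπ₁ : π z₁ = 1) (hπ₂ : π z₂ = 1) (hc₁ : z₁ ∈ center Γ) (hc₂ : z₂ ∈ center Γ)
    (hz₁ : z₁ ^ 2 = 1) (hz₂ : z₂ ^ 2 = 1) (hn₁ : z₁ ≠ 1) (hn₂ : z₂ ≠ 1) (hn : z₁ ≠ z₂)
    (hm₁ : z₁ ∈ commutator Γ) (hm₂ : z₂ ∈ commutator Γ)
    (hker : ∀ x, π x = 1 → x = 1 ∨ x = z₁ ∨ x = z₂ ∨ x = z₁ * z₂) :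
    ∃ σ : Γ →* G, IsStemExtension σ ∧ Nonempty (σ.ker ≃* Multiplicative (ZMod 2 × ZMod 2)) ∧
      Nat.card Γ = 4 * Nat.card G := by
  have hmem : ∀ x, π x ∈ G := fun x => by rw [← hr]; exact ⟨x, rfl⟩
  let σ : Γ →* G := π.codRestrict _ hmem
  have hsurj : Function.Surjective σ := by
    rintro ⟨y, hy⟩
    rw [← hr] at hy
    obtain ⟨x, rfl⟩ := hy
    exact ⟨x, rfl⟩
  have hk₁ : z₁ ∈ σ.ker := by
    rw [MonoidHom.mem_ker]
    exact Subtype.ext hπ₁
  have hk₂ : z₂ ∈ σ.ker := by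
    rw [MonoidHom.mem_ker]
    exact Subtype.ext hπ₂
  have hcomm : Commute z₁ z₂ := (mem_center_iff.1 hc₁ z₂).symm
  let f := kleinHom σ.ker z₁ z₂ hk₁ hk₂ hcomm hz₁ hz₂
  have hfi : Function.Injective f := kleinHom_inj σ.ker z₁ z₂ hk₁ hk₂ hcomm hz₁ hz₂ hn₁ hn₂ hn
  have hv : (1 : ZMod 2).val = 1 := by decide
  have hfs : Function.Surjective f := by
    rintro ⟨x, hx⟩
    have hx' : π x = 1 := congrArg Subtype.val ((MonoidHom.mem_ker).1 hx)
    rcases hker x hx' with rfl | rfl | rfl | rfl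
    · exact ⟨Multiplicative.ofAdd (0, 0), Subtype.ext (by simp [f, kleinHom])⟩
    · exact ⟨Multiplicative.ofAdd (1, 0), Subtype.ext (by simp [f, kleinHom, hv])⟩
    · exact ⟨Multiplicative.ofAdd (0, 1), Subtype.ext (by simp [f, kleinHom, hv])⟩
    · exact ⟨Multiplicative.ofAdd (1, 1), Subtype.ext (by simp [f, kleinHom, hv])⟩
  have hcard4 : Nat.card (Multiplicative (ZMod 2 × ZMod 2)) = 4 := by
    rw [Nat.card_eq_fintype_card]
    decide
  have hcardker : Nat.card σ.ker = 4 := by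
    rw [← hcard4]
    exact (Nat.card_congr (Equiv.ofBijective f ⟨hfi, hfs⟩)).symm
  have hker' : ∀ x ∈ σ.ker, x ∈ center Γ ⊓ commutator Γ := by
    intro x hx
    obtain ⟨y, hy⟩ := hfs ⟨x, hx⟩
    have h3 : z₁ ^ (Multiplicative.toAdd y).1.val * z₂ ^ (Multiplicative.toAdd y).2.val = x :=
      congrArg Subtype.val hy
    rw [← h3]
    exact ⟨mul_mem (pow_mem hc₁ _) (pow_mem hc₂ _), mul_mem (pow_mem hm₁ _) (pow_mem hm₂ _)⟩
  refine ⟨σ, ⟨hsurj, fun x hx => (hker' x hx).1, fun x hx => (hker' x hx).2⟩,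
    ⟨(MulEquiv.ofBijective f ⟨hfi, hfs⟩).symm⟩, ?_⟩
  have h1 := Subgroup.card_mul_index σ.ker
  have h2 : σ.ker.index = Nat.card G := by
    rw [Subgroup.index_ker, MonoidHom.range_eq_top.2 hsurj]
    exact Nat.card_congr Subgroup.topEquiv.toEquiv
  rw [h2, hcardker] at h1
  exact h1.symm

section Codes

variable {N m w mask w' mask' : ℕ} {β : Type u} [Finite β]

/-- The projection to the second part, from the codes. -/
theorem proj_data (e' : β ≃ Fin m) {g : List (ℕ × ℕ × ℕ)} {T T' : List ℕ} (hT : g.map (·.1) = T)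
    (hT' : g.map (·.2.2) = T') (hg : allL (CoverH.blockOK N m w mask w' mask') g = true) :
    ∃ hle : H w mask (EF (N := N) e') T ≤ (Equiv.Perm.sumCongrHom (Fin N) β).range,
      (proj.comp (Subgroup.inclusion hle)).range = H w' mask' e' T' := by
  classical
  subst hT hT'
  let E : Fin N ⊕ β ≃ Fin (m + N) := EF e'
  have hgen : ∀ t ∈ g, goodPair (m + N) w mask t.1 t.2.1 = true ∧
      allL (fun i => Nat.ble m (app w mask t.1 (m + i))) (List.range N) = true ∧
      allL (fun b => Nat.beq (app w mask t.1 b) (app w' mask' t.2.2 b))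
        (List.range m) = true := by
    intro t ht
    have := (allL_eq_true _ _).1 hg t ht
    simpa only [CoverH.blockOK, ifB_eq_true] using this
  have hle : H w mask E (g.map (·.1)) ≤ (Equiv.Perm.sumCongrHom (Fin N) β).range := by
    apply (Subgroup.closure_le _).2
    rintro x ⟨c, hc, hx⟩
    obtain ⟨t, ht, rfl⟩ := List.mem_map.1 hc
    exact mapsTo_of_rep e' hx (hgen t ht).2.1
  refine ⟨hle, ?_⟩
  set H0 := H w mask E (g.map (·.1)) with hH0
  let π : H0 →* Equiv.Perm β := proj.comp (Subgroup.inclusion hle)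
  have hπrep : ∀ (t : ℕ × ℕ × ℕ), t ∈ g → ∀ (x : H0),
      Rep w mask E t.1 (x : Equiv.Perm (Fin N ⊕ β)) →
      Rep w' mask' e' t.2.2 (π x) := by
    intro t ht x hx
    exact rep_proj e' (x := Subgroup.inclusion hle x) hx (hgen t ht).2.2
  have hgenH : ∀ (t : ℕ × ℕ × ℕ), t ∈ g → ∃ x : H0,
      Rep w mask E t.1 (x : Equiv.Perm (Fin N ⊕ β)) := by
    intro t ht
    obtain ⟨x, hx⟩ := exists_rep E (hgen t ht).1
    exact ⟨⟨x, H_of_rep (List.mem_map.2 ⟨t, ht, rfl⟩) hx⟩, hx⟩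
  apply le_antisymm
  · rintro _ ⟨x, rfl⟩
    have hclos : H0 ≤ ((H w' mask' e' (g.map (·.2.2))).comap π).map H0.subtype := by
      apply (Subgroup.closure_le _).2
      rintro y ⟨c, hc, hy⟩
      obtain ⟨t, ht, rfl⟩ := List.mem_map.1 hc
      have hyH : y ∈ H0 := Subgroup.subset_closure ⟨_, List.mem_map.2 ⟨t, ht, rfl⟩, hy⟩
      refine ⟨⟨y, hyH⟩, ?_, rfl⟩
      exact H_of_rep (List.mem_map.2 ⟨t, ht, rfl⟩) (hπrep t ht ⟨y, hyH⟩ hy)
    obtain ⟨y, hy, hyx⟩ := hclos x.2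
    have : y = x := Subtype.ext hyx
    rw [← this]
    exact hy
  · apply (Subgroup.closure_le _).2
    rintro y ⟨c, hc, hy⟩
    obtain ⟨t, ht, rfl⟩ := List.mem_map.1 hc
    obtain ⟨x, hx⟩ := hgenH t ht
    exact ⟨x, (hπrep t ht x hx).unique hy⟩

/-- The relation on the first part. -/
def RelA (Lr mr Rt : ℕ) : Fin N ⊕ β → Fin N ⊕ β → Prop
  | .inl a, .inl b => bit (app Lr mr Rt a.1) b.1 = true
  | _, _ => False

/-- The number with the given bits. -/
noncomputable def rowOf : List ℕ → ℕ :=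
  fun l => List.rec 0 (fun b _ ih => setBit ih b) l

theorem bit_rowOf (l : List ℕ) (y : ℕ) : bit (rowOf l) y = true ↔ y ∈ l := by
  induction l with
  | nil =>
    have h : bit (rowOf []) y = false := by
      show bit 0 y = false
      rw [bit_eq_testBit]
      simp
    simp [h]
  | cons b l ih =>
    have h : rowOf (b :: l) = setBit (rowOf l) b := rfl
    rw [h, bit_setBit, ih, List.mem_cons, or_comm]

/-- The rows of the relation are given by lists. -/
noncomputable def linkOK (Lr mr Rt : ℕ) (nbL : List (ℕ × List ℕ)) : Bool :=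
  allL (fun t => Nat.beq (app Lr mr Rt t.1) (rowOf t.2)) nbL

/-- A generator preserves the relation. -/
noncomputable def relOK (m w mask Lr mr Rt : ℕ) (nbL : List (ℕ × List ℕ)) (c : ℕ) : Bool :=
  allL (fun t => force (app Lr mr Rt (app w mask c (m + t.1) - m)) fun ρ =>
      allL (fun b => bit ρ (app w mask c (m + b) - m)) t.2)
    nbL

/-- The relation separates the points of a fibre. -/
noncomputable def negOK (m w mask Lr mr Rt : ℕ) (nbL : List (ℕ × List ℕ)) (zz : ℕ) : Bool :=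
  allL (fun t => force (app Lr mr Rt t.1) fun σ =>
      allL (fun b => Bool.not (bit σ (app w mask zz (m + b) - m))) t.2)
    nbL

theorem nb_of_bit {Lr mr Rt N : ℕ} {nbL : List (ℕ × List ℕ)} (hnb : nbL.map (·.1) = List.range N)
    (hl : linkOK Lr mr Rt nbL = true) {a b : ℕ} (ha : a < N) (h : bit (app Lr mr Rt a) b = true) :
    ∃ t ∈ nbL, t.1 = a ∧ b ∈ t.2 := by
  have h1 : a ∈ nbL.map (·.1) := by
    rw [hnb]
    exact List.mem_range.2 ha
  obtain ⟨t, ht, rfl⟩ := List.mem_map.1 h1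
  refine ⟨t, ht, rfl, ?_⟩
  have h2 := (allL_eq_true _ _).1 hl t ht
  have h3 : app Lr mr Rt t.1 = rowOf t.2 := Nat.eq_of_beq_eq_true h2
  rw [h3] at h
  exact (bit_rowOf _ _).1 h

/-- A walk along the relation. -/
noncomputable def walkOK (N Lr mr Rt : ℕ) : List ℕ → ℕ → Bool :=
  fun l => List.rec (motive := fun _ => ℕ → Bool) (fun _ => true)
    (fun b _ ih a => ifB (Nat.ble (Nat.succ b) N) (ifB (bit (app Lr mr Rt a) b) (ih b))) l

/-- The two walks cover the first part. -/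
noncomputable def coverOK (N : ℕ) (w₁ w₂ : List ℕ) : Bool :=
  allL (fun c => Bool.rec (memN c w₂) true (memN c w₁)) (List.range N)

/-- The section of the map on the points: it lands in the fibre. -/
noncomputable def secOK (N m w mask wb mb bc sc zz : ℕ) : Bool :=
  allL (fun i => force (app w mask sc (app wb mb bc (m + i))) fun y =>
    Bool.rec (Nat.beq y (app w mask zz (m + i))) true (Nat.beq y (m + i))) (List.range N)

/-- The checks on a central element: `(z, u, v, p)`. -/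
noncomputable def zOK (N m w mask idc : ℕ) (T : List ℕ) (z : ℕ × ℕ × ℕ × ℕ) : Bool :=
  ifB (allL (fun b => Nat.beq (app w mask z.1 b) b) (List.range m)) <|
  ifB (allL (fun t => Nat.beq (comp (m + N) w mask z.1 t) (comp (m + N) w mask t z.1)) T) <|
  ifB (Nat.beq (powC (m + N) w mask idc z.1 2) idc) <|
  ifB (Nat.ble (Nat.succ z.2.2.2) (m + N)) <|
  ifB (Bool.not (Nat.beq (app w mask z.1 z.2.2.2) z.2.2.2)) <|
  Nat.beq (comp (m + N) w mask z.2.1 z.2.2.1) (comp (m + N) w mask z.1 (comp (m + N) w mask z.2.2.1 z.2.1))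

theorem walk_sound {Lr mr Rt : ℕ} {x ν : Equiv.Perm (Fin N ⊕ β)}
    (hrel : ∀ p q, RelA (N := N) (β := β) Lr mr Rt p q → RelA Lr mr Rt (x p) (x q))
    (hfib : ∀ p, x p = p ∨ x p = ν p)
    (hneg : ∀ p q, RelA (N := N) (β := β) Lr mr Rt p q → ¬ RelA Lr mr Rt p (ν q)) :
    ∀ (l : List ℕ) (a : Fin N), x (.inl a) = .inl a → walkOK N Lr mr Rt l a.1 = true →
      ∀ c (hc : c < N), c ∈ l → x (.inl ⟨c, hc⟩) = .inl ⟨c, hc⟩ := by
  intro l
  induction l with
  | nil =>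
    intro a _ _ c _ h
    simp at h
  | cons b l ih =>
    intro a ha hw c hc hm
    have hw' : ifB (Nat.ble (Nat.succ b) N) (ifB (bit (app Lr mr Rt a.1) b) (walkOK N Lr mr Rt l b)) = true := hw
    simp only [ifB_eq_true] at hw'
    obtain ⟨h1, h2, h3⟩ := hw'
    have hb : b < N := Nat.le_of_ble_eq_true h1
    have hR : RelA (N := N) (β := β) Lr mr Rt (.inl a) (.inl ⟨b, hb⟩) := h2
    have hfix : x (.inl ⟨b, hb⟩) = .inl ⟨b, hb⟩ := by
      rcases hfib (.inl ⟨b, hb⟩) with h | h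
      · exact h
      · exfalso
        have h4 := hrel _ _ hR
        rw [ha, h] at h4
        exact hneg _ _ hR h4
    rcases List.mem_cons.1 hm with rfl | hm'
    · exact hfix
    · exact ih ⟨b, hb⟩ hfix h3 c hc hm'

theorem left_of_range {x : Equiv.Perm (Fin N ⊕ β)} (hx : x ∈ (Equiv.Perm.sumCongrHom (Fin N) β).range) (a : Fin N) :
    ∃ a' : Fin N, x (.inl a) = .inl a' := by
  obtain ⟨⟨σ, τ⟩, rfl⟩ := hx
  exact ⟨σ a, rfl⟩

set_option maxHeartbeats 4000000 in
/-- The main theorem. -/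
theorem exists_stem_signs (e' : β ≃ Fin m) {β₂ : Type*} [Finite β₂] {m₂ : ℕ} (e₂ : β₂ ≃ Fin m₂)
    {w₂ mask₂ L₂ maskL₂ idc₂ N₂ wb mb bc sb sc Lr mr Rt idc zz w₃ mask₃ L₃ maskL₃ idc₃ : ℕ}
    {g₁ g₂ : List (ℕ × ℕ × ℕ)} {pairs : List (ℕ × ℕ)} {T T₂ T₃ T' : List ℕ}
    {prog₂ prog₃ : List (ℕ × ℕ × ℕ)} {ls₂ ls₃ : List Lev}
    (hT₁ : g₁.map (·.1) = T) (hT₁' : g₁.map (·.2.2) = T')
    (hT₂ : g₂.map (·.1) = T₂) (hT₂' : g₂.map (·.2.2) = T₃)
    (hp : pairs.map (·.1) = T) (hp2 : allL (fun t => memN t.2 T₂) pairs = true)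
    (hg₁ : allL (CoverH.blockOK N m w mask w' mask') g₁ = true)
    (hg₂ : allL (CoverH.blockOK N₂ m₂ w₂ mask₂ w₃ mask₃) g₂ = true)
    (hc₂ : checkAll (m₂ + N₂) w₂ mask₂ L₂ maskL₂ idc₂ T₂ prog₂ ls₂ = true)
    (hc₃ : checkAll m₂ w₃ mask₃ L₃ maskL₃ idc₃ T₃ prog₃ ls₃ = true)
    (hord₂ : orderC ls₂ = orderC ls₃)
    (hm : mask = 2 ^ w - 1)
    (hid : ∀ i < m + N, app w mask idc i = i)
    (hbnd : allL (fun i => Nat.ble (Nat.succ (app wb mb bc i)) (m₂ + N₂)) (List.range (m + N)) = true)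
    (hbsec : allL (fun j => ifB (Nat.ble (Nat.succ (app wb mb sb j)) m)
      (Nat.beq (app wb mb bc (app wb mb sb j)) j)) (List.range m₂) = true)
    (heqv : allL (fun t => allL (fun i => Nat.beq (app wb mb bc (app w mask t.1 i))
      (app w₂ mask₂ t.2 (app wb mb bc i))) (List.range (m + N))) pairs = true)
    {nbL : List (ℕ × List ℕ)} (hnb : nbL.map (·.1) = List.range N) (hlink : linkOK Lr mr Rt nbL = true)
    (hrelT : ∀ c ∈ T, relOK m w mask Lr mr Rt nbL c = true)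
    (hneg : negOK m w mask Lr mr Rt nbL zz = true)
    (hsec : secOK N m w mask wb mb bc sc zz = true)
    {a₁ a₂ : ℕ} {l₁ l₂ : List ℕ} (ha₁ : a₁ < N) (ha₂ : a₂ < N)
    (hw₁ : walkOK N Lr mr Rt l₁ a₁ = true) (hw₂ : walkOK N Lr mr Rt l₂ a₂ = true)
    (hcov : coverOK N (a₁ :: l₁) (a₂ :: l₂) = true)
    {z₁ z₂ : ℕ × ℕ × ℕ × ℕ}
    (hz₁ : zOK N m w mask idc T z₁ = true) (hz₂ : zOK N m w mask idc T z₂ = true)
    (hmem : ∀ c ∈ [z₁.1, z₁.2.1, z₁.2.2.1, z₂.1, z₂.2.1, z₂.2.2.1],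
      ∃ g ∈ H w mask (EF (N := N) e') T, Rep w mask (EF (N := N) e') c g)
    (hzz : zz = comp (m + N) w mask z₁.1 z₂.1)
    (h12 : Nat.beq (app w mask z₁.1 (m + a₂)) (m + a₂) = true)
    (h21 : Nat.beq (app w mask z₂.1 (m + a₁)) (m + a₁) = true)
    (hne : Nat.beq (app w mask z₁.1 z₂.2.2.2) z₂.2.2.2 = true) :
    ∃ σ : H w mask (EF (N := N) e') T →* H w' mask' e' T',
      IsStemExtension σ ∧ Nonempty (σ.ker ≃* Multiplicative (ZMod 2 × ZMod 2)) ∧
      Nat.card (H w mask (EF (N := N) e') T) = 4 * Nat.card (H w' mask' e' T') := by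
  classical
  let E : Fin N ⊕ β ≃ Fin (m + N) := EF e'
  let E₂ : Fin N₂ ⊕ β₂ ≃ Fin (m₂ + N₂) := EF e₂
  obtain ⟨hle, hr⟩ := proj_data (N := N) (w := w) (mask := mask) (w' := w') (mask' := mask') e' hT₁ hT₁' hg₁
  obtain ⟨hle₂, hr₂⟩ := proj_data (N := N₂) (w := w₂) (mask := mask₂) (w' := w₃) (mask' := mask₃) e₂ hT₂ hT₂' hg₂
  set C : Subgroup (Equiv.Perm (Fin N ⊕ β)) := H w mask E T with hC
  set H2 : Subgroup (Equiv.Perm (Fin N₂ ⊕ β₂)) := H w₂ mask₂ E₂ T₂ with hH2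
  have hrep₂ : ∀ c ∈ T₂, ∃ g, Rep w₂ mask₂ E₂ c g := by
    intro c hc
    rw [← hT₂] at hc
    obtain ⟨t, ht, rfl⟩ := List.mem_map.1 hc
    have h1 := (allL_eq_true _ _).1 hg₂ t ht
    simp only [CoverH.blockOK, ifB_eq_true] at h1
    exact exists_rep _ h1.1
  have hrep₁ : ∀ c ∈ T, ∃ g, Rep w mask E c g := by
    intro c hc
    rw [← hT₁] at hc
    obtain ⟨t, ht, rfl⟩ := List.mem_map.1 hc
    have h1 := (allL_eq_true _ _).1 hg₁ t ht
    simp only [CoverH.blockOK, ifB_eq_true] at h1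
    exact exists_rep _ h1.1
  obtain ⟨-, -, -, -, -, hcard₂⟩ := main_of_checkAll (e := E₂) hrep₂ hc₂
  -- the action of `H2` on `β₂` is faithful
  let π₂ : H2 →* Equiv.Perm β₂ := proj.comp (Subgroup.inclusion hle₂)
  have hrep₃ : ∀ c ∈ T₃, ∃ g, Rep w₃ mask₃ e₂ c g := by
    intro c hc
    rw [← hT₂'] at hc
    obtain ⟨t, ht, rfl⟩ := List.mem_map.1 hc
    have h1 := (allL_eq_true _ _).1 hg₂ t ht
    simp only [CoverH.blockOK, ifB_eq_true] at h1
    obtain ⟨g, hg⟩ := exists_rep E₂ h1.1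
    have hgH : g ∈ H2 := H_of_rep (by rw [← hT₂]; exact List.mem_map.2 ⟨t, ht, rfl⟩) hg
    exact ⟨π₂ ⟨g, hgH⟩, rep_proj e₂ (x := Subgroup.inclusion hle₂ ⟨g, hgH⟩) hg h1.2.2⟩
  obtain ⟨-, -, -, -, -, hcard₃⟩ := main_of_checkAll (e := e₂) hrep₃ hc₃
  have hπ₂inj : Function.Injective π₂ := by
    have hs : Function.Surjective π₂.rangeRestrict := π₂.rangeRestrict_surjective
    have hcardr : Nat.card π₂.range = Nat.card H2 := by
      have h3 : π₂.range = H w₃ mask₃ e₂ T₃ := hr₂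
      rw [h3, hcard₂, hcard₃, hord₂]
    have hb := hs.bijective_of_nat_card_le (le_of_eq hcardr.symm)
    intro x y hxy
    apply hb.1
    apply Subtype.ext
    exact hxy
  -- the map `b`
  have hb1 : ∀ i, i < m + N → app wb mb bc i < m₂ + N₂ := by
    intro i hi
    exact Nat.le_of_ble_eq_true ((allL_eq_true _ _).1 hbnd i (List.mem_range.2 hi))
  obtain ⟨bα, hbα⟩ : ∃ bα : Fin N ⊕ β → Fin N₂ ⊕ β₂, ∀ p, ((E₂ (bα p) : Fin (m₂ + N₂)) : ℕ) = app wb mb bc (E p).1 :=
    ⟨fun p => E₂.symm ⟨app wb mb bc (E p).1, hb1 _ (E p).2⟩, fun p => by simp⟩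
  have hbsurj : ∀ y : β₂, ∃ v : β, bα (.inr v) = .inr y := by
    intro y
    have hj := (allL_eq_true _ _).1 hbsec (e₂ y).1 (List.mem_range.2 (e₂ y).2)
    simp only [ifB_eq_true] at hj
    obtain ⟨h1, h2⟩ := hj
    have hi : app wb mb sb (e₂ y).1 < m := Nat.le_of_ble_eq_true h1
    refine ⟨e'.symm ⟨_, hi⟩, ?_⟩
    apply E₂.injective
    apply Fin.ext
    rw [hbα]
    have h3 : ((E (.inr (e'.symm ⟨_, hi⟩)) : Fin (m + N)) : ℕ) = app wb mb sb (e₂ y).1 := by
      have h5 : ((E (.inr (e'.symm ⟨_, hi⟩)) : Fin (m + N)) : ℕ) = (e' (e'.symm ⟨_, hi⟩)).1 := EF_inr e' _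
      rw [h5, Equiv.apply_symm_apply]
    have h4 : ((E₂ (.inr y) : Fin (m₂ + N₂)) : ℕ) = (e₂ y).1 := EF_inr e₂ y
    rw [h3, h4]
    exact Nat.eq_of_beq_eq_true h2
  -- equivariance
  have hF1 : ∀ x ∈ C, ∃ x' ∈ H2, ∀ p, bα (x p) = x' (bα p) := by
    refine closure_ind (S := {g | ∃ c ∈ T, Rep w mask E c g}) (P := fun x => ∃ x' ∈ H2, ∀ p, bα (x p) = x' (bα p))
      ⟨1, one_mem _, fun p => by simp⟩ ?_ ?_
    · rintro a b ⟨a', ha', ha⟩ ⟨b', hb', hb⟩
      refine ⟨a' * b', mul_mem ha' hb', fun p => ?_⟩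
      rw [Equiv.Perm.mul_apply, ha, hb, Equiv.Perm.mul_apply]
    · rintro g ⟨c, hc, hg⟩
      rw [← hp] at hc
      obtain ⟨t, ht, rfl⟩ := List.mem_map.1 hc
      have h2 : t.2 ∈ T₂ := (memN_eq_true _ _).1 ((allL_eq_true _ _).1 hp2 t ht)
      obtain ⟨g', hg'⟩ := hrep₂ _ h2
      refine ⟨g', H_of_rep h2 hg', fun p => ?_⟩
      apply E₂.injective
      apply Fin.ext
      rw [hbα, ← hg (p), ← hg' (bα p), hbα]
      have h3 := (allL_eq_true _ _).1 heqv t ht
      exact Nat.eq_of_beq_eq_true ((allL_eq_true _ _).1 h3 _ (List.mem_range.2 (E p).2))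
  -- the relation
  have hF2 : ∀ x ∈ C, ∀ p q, RelA (N := N) (β := β) Lr mr Rt p q → RelA Lr mr Rt (x p) (x q) := by
    refine closure_ind (S := {g | ∃ c ∈ T, Rep w mask E c g})
      (P := fun x => ∀ p q, RelA (N := N) (β := β) Lr mr Rt p q → RelA Lr mr Rt (x p) (x q))
      (fun p q h => h) (fun a b ha hb p q h => ha _ _ (hb _ _ h)) ?_
    rintro g ⟨c, hc, hg⟩ p q hpq
    have hgC : g ∈ C := H_of_rep hc hg
    cases p with
    | inr _ => exact absurd hpq (by simp [RelA])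
    | inl a =>
      cases q with
      | inr _ => exact absurd hpq (by simp [RelA])
      | inl b =>
        obtain ⟨a', ha'⟩ := left_of_range (hle hgC) a
        obtain ⟨b', hb'⟩ := left_of_range (hle hgC) b
        have hna : app w mask c (m + a.1) = m + a'.1 := by
          have h3 := hg (.inl a)
          rw [ha'] at h3
          have h4 : ((E (.inl a) : Fin (m + N)) : ℕ) = m + a.1 := EF_inl e' a
          have h5 : ((E (.inl a') : Fin (m + N)) : ℕ) = m + a'.1 := EF_inl e' a'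
          rw [h4, h5] at h3
          exact h3
        have hnb' : app w mask c (m + b.1) - m = b'.1 := by
          have h3 := hg (.inl b)
          rw [hb'] at h3
          have h4 : ((E (.inl b) : Fin (m + N)) : ℕ) = m + b.1 := EF_inl e' b
          have h5 : ((E (.inl b') : Fin (m + N)) : ℕ) = m + b'.1 := EF_inl e' b'
          rw [h4, h5] at h3
          rw [h3, Nat.add_sub_cancel_left]
        rw [ha', hb']
        have hσ : bit (app Lr mr Rt a.1) b.1 = true := hpq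
        obtain ⟨t, ht, hta, htb⟩ := nb_of_bit hnb hlink a.2 hσ
        have h1 := (allL_eq_true _ _).1 (hrelT c hc) t ht
        simp only [force_eq] at h1
        have h3 := (allL_eq_true _ _).1 h1 b.1 htb
        rw [hnb', hta, hna, Nat.add_sub_cancel_left] at h3
        exact h3
  -- the projection
  let π : C →* Equiv.Perm β := proj.comp (Subgroup.inclusion hle)
  have hπa : ∀ (x : C) (v : β), (x : Equiv.Perm (Fin N ⊕ β)) (.inr v) = .inr (π x v) := by
    intro x v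
    exact proj_apply (Subgroup.inclusion hle x) v
  -- central elements
  have hcentral : ∀ z : ℕ × ℕ × ℕ × ℕ, zOK N m w mask idc T z = true →
      (∃ g ∈ C, Rep w mask E z.1 g) → (∃ g ∈ C, Rep w mask E z.2.1 g) → (∃ g ∈ C, Rep w mask E z.2.2.1 g) →
      ∃ x : C, Rep w mask E z.1 (x : Equiv.Perm (Fin N ⊕ β)) ∧ π x = 1 ∧ x ∈ center C ∧ x ^ 2 = 1 ∧ x ≠ 1 ∧
        x ∈ commutator C := by
    rintro ⟨zc, uc, vc, p⟩ hz ⟨gz, hgzH, hgz⟩ ⟨gu, hguH, hgu⟩ ⟨gv, hgvH, hgv⟩
    simp only [zOK, ifB_eq_true] at hz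
    obtain ⟨hzb, hzcomm, hzk, hp', hzp, huv⟩ := hz
    let z : C := ⟨gz, hgzH⟩
    let u : C := ⟨gu, hguH⟩
    let v : C := ⟨gv, hgvH⟩
    have hπz : π z = 1 := by
      ext b
      have h3 := hgz (Sum.inr b)
      have h4 := (allL_eq_true _ _).1 hzb (e' b).1 (List.mem_range.2 (e' b).2)
      have h5 : app w mask zc (e' b).1 = (e' b).1 := Nat.eq_of_beq_eq_true h4
      have h6 : ((E (Sum.inr b) : Fin (m + N)) : ℕ) = (e' b).1 := EF_inr e' b
      rw [h6, h5] at h3
      have h7 : (gz (Sum.inr b)) = Sum.inr b := by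
        apply (E).injective
        apply Fin.ext
        rw [← h3, h6]
      have h8 := hπa z b
      have h9 : (z : Equiv.Perm (Fin N ⊕ β)) = gz := rfl
      rw [h9, h7] at h8
      exact (Sum.inr.inj h8).symm
    have hzcent : z ∈ center C := by
      rw [mem_center_iff]
      have hcl : C ≤ centralizer ({gz} : Set (Equiv.Perm (Fin N ⊕ β))) := by
        apply (Subgroup.closure_le _).2
        rintro g ⟨c, hc, hg⟩
        rw [SetLike.mem_coe, mem_centralizer_singleton_iff]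
        have h1 := (allL_eq_true _ _).1 hzcomm c hc
        have h2 := Nat.eq_of_beq_eq_true h1
        have h3 := hgz.comp hm hg
        rw [h2] at h3
        exact (hg.comp hm hgz).unique h3
      intro y
      apply Subtype.ext
      exact mem_centralizer_singleton_iff.1 (hcl y.2)
    have hz2 : z ^ 2 = 1 := by
      apply Subtype.ext
      have h1 := Rep_pow hm hid hgz 2
      exact h1.eq_one hid (Nat.eq_of_beq_eq_true hzk)
    have hzne : z ≠ 1 := by
      intro h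
      have h1 : gz = 1 := congrArg Subtype.val h
      have hp'' : p < m + N := Nat.le_of_ble_eq_true hp'
      have h2 := hgz ((E).symm ⟨p, hp''⟩)
      rw [h1] at h2
      simp at h2
      have h3 : Nat.beq (app w mask zc p) p = true := by
        rw [h2]; exact Nat.beq_refl p
      rw [h3] at hzp
      exact absurd hzp (by decide)
    have hzz' : z ∈ commutator C := by
      have h1 : gu * gv = gz * (gv * gu) := by
        have h2 := hgu.comp hm hgv
        rw [Nat.eq_of_beq_eq_true huv] at h2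
        exact h2.unique (hgz.comp hm (hgv.comp hm hgu))
      have h3 : ⁅u, v⁆ = z := by
        apply Subtype.ext
        show gu * gv * gu⁻¹ * gv⁻¹ = gz
        rw [h1]
        group
      rw [← h3]
      exact Subgroup.commutator_mem_commutator (mem_top _) (mem_top _)
    exact ⟨z, hgz, hπz, hzcent, hz2, hzne, hzz'⟩
  have hm1 := hmem z₁.1 (by simp)
  have hm2 := hmem z₁.2.1 (by simp)
  have hm3 := hmem z₁.2.2.1 (by simp)
  have hm4 := hmem z₂.1 (by simp)
  have hm5 := hmem z₂.2.1 (by simp)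
  have hm6 := hmem z₂.2.2.1 (by simp)
  obtain ⟨x₁, hr₁, hπ₁, hc₁, hs₁, hn₁, hm₁⟩ := hcentral z₁ hz₁ hm1 hm2 hm3
  obtain ⟨x₂, hr₂', hπ₂, hc₂', hs₂, hn₂, hm₂⟩ := hcentral z₂ hz₂ hm4 hm5 hm6
  have hn : x₁ ≠ x₂ := by
    intro h
    simp only [zOK, ifB_eq_true] at hz₂
    obtain ⟨-, -, -, hp', hzp, -⟩ := hz₂
    have hp'' : z₂.2.2.2 < m + N := Nat.le_of_ble_eq_true hp'
    have h1 := hr₁ ((E).symm ⟨_, hp''⟩)
    have h2 := hr₂' ((E).symm ⟨_, hp''⟩)
    rw [← h] at h2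
    simp only [Equiv.apply_symm_apply] at h1 h2
    have h3 : app w mask z₁.1 z₂.2.2.2 = z₂.2.2.2 := Nat.eq_of_beq_eq_true hne
    rw [h3] at h1
    rw [← h1] at h2
    rw [h2] at hzp
    rw [Nat.beq_refl] at hzp
    exact absurd hzp (by decide)
  -- the sign map
  set ν : Equiv.Perm (Fin N ⊕ β) := (x₁ : Equiv.Perm (Fin N ⊕ β)) * (x₂ : Equiv.Perm (Fin N ⊕ β)) with hν
  have hνrep : Rep w mask E zz ν := by
    rw [hzz]
    exact hr₁.comp hm hr₂'
  have hνC : ν ∈ C := mul_mem x₁.2 x₂.2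
  have hcomm12 : (x₁ : Equiv.Perm (Fin N ⊕ β)) * x₂ = x₂ * x₁ :=
    congrArg Subtype.val (mem_center_iff.1 hc₁ x₂).symm
  have hs₁' : (x₁ : Equiv.Perm (Fin N ⊕ β)) * x₁ = 1 := by
    have := congrArg Subtype.val hs₁
    rw [pow_two] at this
    exact this
  have hs₂' : (x₂ : Equiv.Perm (Fin N ⊕ β)) * x₂ = 1 := by
    have := congrArg Subtype.val hs₂
    rw [pow_two] at this
    exact this
  have hνν : ∀ p, ν (ν p) = p := by
    intro p
    have h1 : ν * ν = 1 := by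
      calc ν * ν = (x₁ : Equiv.Perm (Fin N ⊕ β)) * x₂ * (x₂ * x₁) := by rw [hν, ← hcomm12]
        _ = x₁ * (x₂ * x₂) * x₁ := by group
        _ = 1 := by rw [hs₂', mul_one, hs₁']
    have h2 := congrArg (fun f : Equiv.Perm (Fin N ⊕ β) => f p) h1
    exact h2
  -- the fibres
  have hF4 : ∀ a b : Fin N, bα (.inl a) = bα (.inl b) → (.inl b : Fin N ⊕ β) = .inl a ∨ (.inl b : Fin N ⊕ β) = ν (.inl a) := by
    intro a b hpq
    have hinl : ∀ c : Fin N, ((E (.inl c) : Fin (m + N)) : ℕ) = m + c.1 := fun c => EF_inl e' c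
    have h1 : app wb mb bc (m + a.1) = app wb mb bc (m + b.1) := by
      rw [← hinl, ← hinl, ← hbα, ← hbα, hpq]
    have key : ∀ c : Fin N, app w mask sc (app wb mb bc (m + c.1)) = (E (.inl c)).1 ∨
        app w mask sc (app wb mb bc (m + c.1)) = (E (ν (.inl c))).1 := by
      intro c
      have hs1 := (allL_eq_true _ _).1 hsec c.1 (List.mem_range.2 c.2)
      simp only [force_eq] at hs1
      rw [hinl]
      cases hb : Nat.beq (app w mask sc (app wb mb bc (m + c.1))) (m + c.1) with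
      | true => exact Or.inl (Nat.eq_of_beq_eq_true hb)
      | false =>
        rw [hb] at hs1
        right
        have h3 : app w mask sc (app wb mb bc (m + c.1)) = app w mask zz (m + c.1) := Nat.eq_of_beq_eq_true hs1
        rw [h3, ← hνrep (.inl c), hinl]
    have hk1 := key a
    have hk2 := key b
    rw [← h1] at hk2
    have hinj : ∀ r s : Fin N ⊕ β, (E r).1 = (E s).1 → r = s := fun r s h => E.injective (Fin.ext h)
    rcases hk1 with h3 | h3 <;> rcases hk2 with h4 | h4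
    · exact Or.inl (hinj _ _ (h4.symm.trans h3))
    · right
      have h5 := hinj _ _ (h4.symm.trans h3)
      rw [← h5, hνν]
    · right
      exact hinj _ _ (h4.symm.trans h3)
    · left
      have h5 := hinj _ _ (h4.symm.trans h3)
      have h6 := congrArg ν h5
      rw [hνν, hνν] at h6
      exact h6
  -- elements of the kernel
  have hker1 : ∀ x : C, π x = 1 → ∀ p, (x : Equiv.Perm (Fin N ⊕ β)) p = p ∨ (x : Equiv.Perm (Fin N ⊕ β)) p = ν p := by
    intro x hx p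
    obtain ⟨x', hx', hb⟩ := hF1 _ x.2
    have hx'1 : (⟨x', hx'⟩ : H2) = 1 := by
      apply hπ₂inj
      rw [map_one]
      ext v
      have h1 : x' (.inr v) = .inr (π₂ ⟨x', hx'⟩ v) := proj_apply (Subgroup.inclusion hle₂ ⟨x', hx'⟩) v
      obtain ⟨v', hv'⟩ := hbsurj v
      have h2 := hb (.inr v')
      rw [hπa, hx] at h2
      have h3 : (1 : Equiv.Perm β) v' = v' := rfl
      rw [h3, hv', h1] at h2
      exact (Sum.inr.inj h2).symm
    have hx'2 : x' = 1 := congrArg Subtype.val hx'1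
    cases p with
    | inr v =>
      left
      rw [hπa, hx]
      rfl
    | inl a =>
      obtain ⟨a', ha'⟩ := left_of_range (hle x.2) a
      have h3 := hb (.inl a)
      rw [hx'2, ha'] at h3
      rw [ha']
      exact hF4 a a' h3.symm
  have hnegA : ∀ p q, RelA (N := N) (β := β) Lr mr Rt p q → ¬ RelA Lr mr Rt p (ν q) := by
    intro p q hpq
    cases p with
    | inr _ => exact absurd hpq (by simp [RelA])
    | inl a =>
      cases q with
      | inr _ => exact absurd hpq (by simp [RelA])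
      | inl b =>
        obtain ⟨b', hb'⟩ := left_of_range (hle hνC) b
        rw [hb']
        have h3 := hνrep (.inl b)
        rw [hb'] at h3
        have h4 : ((E (.inl b) : Fin (m + N)) : ℕ) = m + b.1 := EF_inl e' b
        have h5 : ((E (.inl b') : Fin (m + N)) : ℕ) = m + b'.1 := EF_inl e' b'
        rw [h4, h5] at h3
        have hσ : bit (app Lr mr Rt a.1) b.1 = true := hpq
        obtain ⟨t, ht, hta, htb⟩ := nb_of_bit hnb hlink a.2 hσ
        have h1 := (allL_eq_true _ _).1 hneg t ht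
        simp only [force_eq] at h1
        have h2 := (allL_eq_true _ _).1 h1 b.1 htb
        rw [hta, h3, Nat.add_sub_cancel_left] at h2
        intro h6
        have h7 : bit (app Lr mr Rt a.1) b'.1 = true := h6
        rw [h7] at h2
        exact absurd h2 (by decide)
  have hone : ∀ x : C, π x = 1 → (x : Equiv.Perm (Fin N ⊕ β)) (.inl ⟨a₁, ha₁⟩) = .inl ⟨a₁, ha₁⟩ →
      (x : Equiv.Perm (Fin N ⊕ β)) (.inl ⟨a₂, ha₂⟩) = .inl ⟨a₂, ha₂⟩ → x = 1 := by
    intro x hx h1 h2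
    apply Subtype.ext
    ext1 p
    cases p with
    | inr v =>
      rw [hπa, hx]
      rfl
    | inl a =>
      have hw := walk_sound (hF2 _ x.2) (hker1 x hx) hnegA
      have h3 := (allL_eq_true _ _).1 hcov a.1 (List.mem_range.2 a.2)
      show (x : Equiv.Perm (Fin N ⊕ β)) (.inl a) = .inl a
      have hc1 : ∀ {b : ℕ} {l : List ℕ} (hbN : b < N), (x : Equiv.Perm (Fin N ⊕ β)) (.inl ⟨b, hbN⟩) = .inl ⟨b, hbN⟩ →
          walkOK N Lr mr Rt l b = true → memN a.1 (b :: l) = true →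
          (x : Equiv.Perm (Fin N ⊕ β)) (.inl a) = .inl a := by
        intro b l hbN hfix hwk hmemb
        have hmem' := (memN_eq_true _ _).1 hmemb
        rcases List.mem_cons.1 hmem' with h5 | h5
        · have h6 : a = ⟨b, hbN⟩ := Fin.ext h5
          rw [h6]
          exact hfix
        · exact hw l ⟨b, hbN⟩ hfix hwk a.1 a.2 h5
      cases hmem1 : memN a.1 (a₁ :: l₁) with
      | true => exact hc1 ha₁ h1 hw₁ hmem1
      | false =>
        rw [hmem1] at h3
        exact hc1 ha₂ h2 hw₂ h3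
  -- the kernel
  have h12' : (x₁ : Equiv.Perm (Fin N ⊕ β)) (.inl ⟨a₂, ha₂⟩) = .inl ⟨a₂, ha₂⟩ := by
    apply E.injective
    apply Fin.ext
    rw [← hr₁]
    have h4 : ((E (.inl ⟨a₂, ha₂⟩) : Fin (m + N)) : ℕ) = m + a₂ := EF_inl e' _
    rw [h4]
    exact Nat.eq_of_beq_eq_true h12
  have h21' : (x₂ : Equiv.Perm (Fin N ⊕ β)) (.inl ⟨a₁, ha₁⟩) = .inl ⟨a₁, ha₁⟩ := by
    apply E.injective
    apply Fin.ext
    rw [← hr₂']
    have h4 : ((E (.inl ⟨a₁, ha₁⟩) : Fin (m + N)) : ℕ) = m + a₁ := EF_inl e' _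
    rw [h4]
    exact Nat.eq_of_beq_eq_true h21
  have hν₁ : ν (.inl ⟨a₁, ha₁⟩) = (x₁ : Equiv.Perm (Fin N ⊕ β)) (.inl ⟨a₁, ha₁⟩) := by
    rw [hν, Equiv.Perm.mul_apply, h21']
  have hν₂ : ν (.inl ⟨a₂, ha₂⟩) = (x₂ : Equiv.Perm (Fin N ⊕ β)) (.inl ⟨a₂, ha₂⟩) := by
    rw [hν, hcomm12, Equiv.Perm.mul_apply, h12']
  have hinv1 : ∀ p, (x₁ : Equiv.Perm (Fin N ⊕ β)) ((x₁ : Equiv.Perm (Fin N ⊕ β)) p) = p := fun p =>
    congrArg (fun f : Equiv.Perm (Fin N ⊕ β) => f p) hs₁'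
  have hinv2 : ∀ p, (x₂ : Equiv.Perm (Fin N ⊕ β)) ((x₂ : Equiv.Perm (Fin N ⊕ β)) p) = p := fun p =>
    congrArg (fun f : Equiv.Perm (Fin N ⊕ β) => f p) hs₂'
  have hker : ∀ x : C, π x = 1 → x = 1 ∨ x = x₁ ∨ x = x₂ ∨ x = x₁ * x₂ := by
    intro x hx
    have hk1 := hker1 x hx (.inl ⟨a₁, ha₁⟩)
    have hk2 := hker1 x hx (.inl ⟨a₂, ha₂⟩)
    rw [hν₁] at hk1
    rw [hν₂] at hk2
    rcases hk1 with hk1 | hk1 <;> rcases hk2 with hk2 | hk2
    · exact Or.inl (hone x hx hk1 hk2)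
    · right; right; left
      have h1 : x₂ * x = 1 := by
        apply hone
        · rw [map_mul, hπ₂, hx, one_mul]
        · show (x₂ : Equiv.Perm (Fin N ⊕ β)) ((x : Equiv.Perm (Fin N ⊕ β)) _) = _
          rw [hk1, h21']
        · show (x₂ : Equiv.Perm (Fin N ⊕ β)) ((x : Equiv.Perm (Fin N ⊕ β)) _) = _
          rw [hk2, hinv2]
      have h2 : x₂ * x₂ = 1 := by rw [← pow_two, hs₂]
      calc x = x₂ * x₂ * x := by rw [h2, one_mul]
        _ = x₂ * (x₂ * x) := mul_assoc _ _ _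
        _ = x₂ := by rw [h1, mul_one]
    · right; left
      have h1 : x₁ * x = 1 := by
        apply hone
        · rw [map_mul, hπ₁, hx, one_mul]
        · show (x₁ : Equiv.Perm (Fin N ⊕ β)) ((x : Equiv.Perm (Fin N ⊕ β)) _) = _
          rw [hk1, hinv1]
        · show (x₁ : Equiv.Perm (Fin N ⊕ β)) ((x : Equiv.Perm (Fin N ⊕ β)) _) = _
          rw [hk2, h12']
      have h2 : x₁ * x₁ = 1 := by rw [← pow_two, hs₁]
      calc x = x₁ * x₁ * x := by rw [h2, one_mul]
        _ = x₁ * (x₁ * x) := mul_assoc _ _ _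
        _ = x₁ := by rw [h1, mul_one]
    · right; right; right
      have hcc : x₂ * x₁ = x₁ * x₂ := (mem_center_iff.1 hc₁ x₂)
      have h1 : x₂ * (x₁ * x) = 1 := by
        apply hone
        · rw [map_mul, map_mul, hπ₁, hπ₂, hx, one_mul, one_mul]
        · show (x₂ : Equiv.Perm (Fin N ⊕ β)) ((x₁ : Equiv.Perm (Fin N ⊕ β)) ((x : Equiv.Perm (Fin N ⊕ β)) _)) = _
          rw [hk1, hinv1, h21']
        · have hk3 : (x₁ : Equiv.Perm (Fin N ⊕ β)) ((x₂ : Equiv.Perm (Fin N ⊕ β)) (.inl ⟨a₂, ha₂⟩)) =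
              (x₂ : Equiv.Perm (Fin N ⊕ β)) (.inl ⟨a₂, ha₂⟩) := by
            have := congrArg (fun f : Equiv.Perm (Fin N ⊕ β) => f (.inl ⟨a₂, ha₂⟩)) hcomm12
            simp only [Equiv.Perm.mul_apply, h12'] at this
            exact this
          show (x₂ : Equiv.Perm (Fin N ⊕ β)) ((x₁ : Equiv.Perm (Fin N ⊕ β)) ((x : Equiv.Perm (Fin N ⊕ β)) _)) = _
          rw [hk2, hk3, hinv2]
      have h2 : x₁ * x₁ = 1 := by rw [← pow_two, hs₁]
      have h3 : x₂ * x₂ = 1 := by rw [← pow_two, hs₂]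
      calc x = x₁ * (x₁ * x) := by rw [← mul_assoc, h2, one_mul]
        _ = x₁ * (x₂ * x₂ * (x₁ * x)) := by rw [h3, one_mul]
        _ = x₁ * (x₂ * (x₂ * (x₁ * x))) := by rw [mul_assoc x₂]
        _ = x₁ * x₂ := by rw [h1, mul_one]
  have hfin : Finite C := inferInstance
  exact stem_of_range π _ hr x₁ x₂ hπ₁ hπ₂ hc₁ hc₂' hs₁ hs₂ hn₁ hn₂ hn hm₁ hm₂ hker

end Codes

end Cfsg.Agent.Lib.Schur.Univ.Signs
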